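import Cfsg.Agent.Lib.CosetCert.D.OnM11.Dg.Tab

namespace Cfsg.Agent.Lib.CosetCert.D.OnM11.Dg.C0

open Cfsg.Agent.Lib.CosetCert Cfsg.Agent.Lib.TC.Core Cfsg.Agent.Lib.TC.Enc Cfsg.Agent.Lib.TC.Pres Cfsg.Agent.Lib.TC.Perm Cfsg.Agent.Lib.TC.Main

set_option maxRecDepth 100000

open Cfsg.Agent.Lib.CosetCert.D.OnM11.Dg.Tab in
theorem ok : cert.chkRange 0 2433 = true := by decide +kernel

open Cfsg.Agent.Lib.CosetCert.D.OnM11.Dg.Tab in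
theorem fin : cert.chkFinal 0 2433 = true := by decide +kernel

end Cfsg.Agent.Lib.CosetCert.D.OnM11.Dg.C0
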