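import Cfsg.Agent.Lib.CosetCert.D.OnM11.Dg.Tab
import Cfsg.Agent.Lib.CosetCert.D.OnM11.Dg.C0
import Cfsg.Agent.Lib.CosetCert.D.OnM11.Dg.R0

namespace Cfsg.Agent.Lib.CosetCert.D.OnM11.Dg.Ok

open Cfsg.Agent.Lib.CosetCert Cfsg.Agent.Lib.TC.Core Cfsg.Agent.Lib.TC.Enc Cfsg.Agent.Lib.TC.Pres Cfsg.Agent.Lib.TC.Perm Cfsg.Agent.Lib.TC.Main

set_option maxRecDepth 100000

open Cfsg.Agent.Lib.CosetCert.D.OnM11.Dg.Tab Cfsg.Agent.Lib.CosetCert.D.OnM11.Tbl

theorem hrelk : ∀ l ∈ rels, ∀ z ∈ l, z < L0.k := by decide +kernel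

theorem hrelR : allR (guard 55 (wordFixes F0 rels)) 6 0 = true :=
  Cfsg.Agent.Lib.CosetCert.D.OnM11.Dg.R0.ok

theorem allC0 : cert.chkRange 0 2433 = true := Cfsg.Agent.Lib.CosetCert.D.OnM11.Dg.C0.ok
theorem allF0 : cert.chkFinal 0 2433 = true := Cfsg.Agent.Lib.CosetCert.D.OnM11.Dg.C0.fin

theorem h0 : cert.eLvl (cert.par (cert.find cert.MAX cert.D 0)) = cert.MAX := by decide +kernel

theorem hcount : cert.countRoots cert.N = 720 := by
  rw [countRoots_eq_acc]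
  decide +kernel

theorem hchecked : Checked cert where
  hN := by decide
  hC := allC0
  hF := allF0
  h0 := h0

theorem h1 : chkRelRots cert inv0 rels witT.get = true := by decide +kernel

theorem h2 : chkSubRots cert [[0,1]] = true := by decide +kernel

theorem hrelL : ∀ l ∈ rels, ev L0.val l = 1 := fun _ hl =>
  L0.ev_one_of_wordFixes hrelk (all_of_allR (by decide) hrelR) hl

theorem huk : ∀ z ∈ ([0,1] : List ℕ), z < L0.k := by decide +kernel

theorem hu : (List.replicate 11 ([0,1] : List ℕ)).flatten ∈ rels := by decide +kernel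

end Cfsg.Agent.Lib.CosetCert.D.OnM11.Dg.Ok
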